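import Cfsg.Agent.Lib.Helper13.Asch.Defs3

set_option autoImplicit false

/-! # Subgroup structure of the orthogonal groups in odd dimension: shared vocabulary -/

namespace Cfsg.Agent.Lib.Helper21.OAsch

open Cfsg Cfsg.Geo Matrix Cfsg.Agent.Lib.Helper13.Asch
open scoped Kronecker MatrixGroups

variable {ι : Type} [Fintype ι] [DecidableEq ι] {F : Type*} [Field F]

/-- `Q` is a quadratic form in odd dimension and odd characteristic whose polar form has the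
invertible symmetric Gram matrix `G`, of determinant in the prime field -/
structure OData (Q : (ι → F) → F) (G : Matrix ι ι F) : Prop where
  two : (2 : F) ≠ 0
  symm : Gᵀ = G
  unit : IsUnit G.det
  polar : ∀ u v, QuadraticMap.polar Q u v = u ⬝ᵥ (G *ᵥ v)
  quad : ∀ v, 2 * Q v = v ⬝ᵥ (G *ᵥ v)
  odd : Odd (Fintype.card ι)
  rat : ∀ F₀ : Subfield F, G.det ∈ F₀

/-- `H` consists of isometries of the Gram matrix `G` -/
def Iso (G : Matrix ι ι F) (H : Subgroup (GL ι F)) : Prop :=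
  ∀ h ∈ H, (h : Matrix ι ι F)ᵀ * G * (h : Matrix ι ι F) = G

/-- the adjoint of `X` for the Gram matrix `G` -/
noncomputable def adj (G X : Matrix ι ι F) : Matrix ι ι F := G⁻¹ * Xᵀ * G

/-- the centre of a subalgebra -/
def cen (A : Subalgebra F (Matrix ι ι F)) : Subalgebra F (Matrix ι ι F) :=
  A ⊓ Subalgebra.centralizer F (A : Set (Matrix ι ι F))

/-- the bilinear form with Gram matrix `G` -/
def bf {κ : Type} [Fintype κ] (G : Matrix κ κ F) (u v : κ → F) : F := u ⬝ᵥ (G *ᵥ v)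

def C1a (Q : (ι → F) → F) (H : Subgroup (GL ι F)) : Prop :=
  ∃ W : Submodule F (ι → F), W ≠ ⊥ ∧ IsTotallySingularQuad Q W ∧ H ≤ subspaceStabilizer W

def C1b (Q : (ι → F) → F) (H : Subgroup (GL ι F)) : Prop :=
  ∃ W : Submodule F (ι → F), W ≠ ⊥ ∧ W ≠ ⊤ ∧ IsNondegenerateOn (QuadraticMap.polar Q) W ∧
    H ≤ subspaceStabilizer W

/-- an orthogonal decomposition into isometric subspaces of dimension `k` -/
def CDec (Q : (ι → F) → F) (H : Subgroup (GL ι F)) (k : ℕ) : Prop :=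
  ∃ (t : ℕ) (D : Fin t → Submodule F (ι → F)), IsOrthogonalMDecomposition Q k D ∧
    H ≤ decompositionStabilizer D

def C2a (Q : (ι → F) → F) (H : Subgroup (GL ι F)) : Prop := ∃ k, 1 < k ∧ CDec Q H k

def C2b [Fintype F] (Q : (ι → F) → F) (H : Subgroup (GL ι F)) : Prop :=
  (Fintype.card F).Prime ∧ CDec Q H 1

def C3 (Q : (ι → F) → F) (H : Subgroup (GL ι F)) : Prop :=
  ∃ (r : ℕ) (K : Subalgebra F (Matrix ι ι F)), r.Prime ∧ Fintype.card ι ≠ r ∧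
    IsFieldSubalgebra r K ∧ IsSelfAdjointFor (QuadraticMap.polar Q) K ∧ H ≤ subalgebraNormalizer K

def C4 (Q : (ι → F) → F) (H : Subgroup (GL ι F)) : Prop :=
  ∃ (n₁ n₂ : ℕ) (e : ι ≃ Fin n₁ × Fin n₂) (P : GL ι F)
    (f₁ : (Fin n₁ → F) → (Fin n₁ → F) → F) (f₂ : (Fin n₂ → F) → (Fin n₂ → F) → F),
    3 ≤ n₁ ∧ n₁ < n₂ ∧ IsSymmetricForm f₁ ∧ IsSymmetricForm f₂ ∧
    IsTensorFormStructure id (QuadraticMap.polar Q) f₁ f₂ e P ∧ H ≤ tensorProductSubgroup n₁ n₂ e P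

def C5 [Fintype F] (Q : (ι → F) → F) (H : Subgroup (GL ι F)) : Prop :=
  ∃ (F₀ : Subfield F) (r : ℕ) (P : GL ι F), r.Prime ∧ Fintype.card F = Nat.card F₀ ^ r ∧
    IsQuadFormRationalStructure Q F₀ P ∧ H ≤ subfieldSubgroup F₀ P

def C7 [Fintype F] (Q : (ι → F) → F) (H : Subgroup (GL ι F)) : Prop :=
  ∃ (k t : ℕ) (e : ι ≃ (Fin t → Fin k)) (P : GL ι F) (f₁ : (Fin k → F) → (Fin k → F) → F),
    3 ≤ k ∧ 2 ≤ t ∧ ¬ (Fintype.card F = 3 ∧ k = 3) ∧ IsSymmetricForm f₁ ∧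
    IsTensorPowerFormStructure id (QuadraticMap.polar Q) f₁ e P ∧ H ≤ tensorWreathSubgroup k t e P

/-- the classes without tensor structure -/
def OBasic [Fintype F] (Q : (ι → F) → F) (H : Subgroup (GL ι F)) : Prop :=
  C1a Q H ∨ C1b Q H ∨ C2a Q H ∨ C2b Q H ∨ C3 Q H ∨ C5 Q H

/-- all the classes -/
def OCls [Fintype F] (Q : (ι → F) → F) (H : Subgroup (GL ι F)) : Prop :=
  OBasic Q H ∨ C4 Q H ∨ C7 Q H

/-- a tensor decomposition with two factors coming from the perfect normal subgroup `N`,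
forms not yet attached -/
def RawT (H : Subgroup (GL ι F)) : Prop :=
  ∃ (N : Subgroup (GL ι F)) (a b : ℕ) (e : ι ≃ Fin a × Fin b) (P : GL ι F),
    N ≤ H ∧ ⁅N, N⁆ = N ∧ ¬ N ≤ scalars ι F ∧ 2 ≤ a ∧ 2 ≤ b ∧
    (∀ x, x ∈ env N ↔ ∃ X, x = embL e P X) ∧ H ≤ tensorProductSubgroup a b e P

/-- a tensor decomposition with `t` equal factors coming from commuting perfect subgroups,
forms not yet attached -/
def RawW (H : Subgroup (GL ι F)) : Prop :=
  ∃ (k t : ℕ) (e : ι ≃ (Fin t → Fin k)) (P : GL ι F) (L : Fin t → Subgroup (GL ι F)),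
    2 ≤ t ∧ (∀ i, L i ≤ H) ∧ (∀ i, ⁅L i, L i⁆ = L i) ∧ (∀ i, ¬ L i ≤ scalars ι F) ∧
    (∀ i, ∀ x, x ∈ env (L i) ↔ ∃ X, x = embT e P i X) ∧ H ≤ tensorWreathSubgroup k t e P

end Cfsg.Agent.Lib.Helper21.OAsch
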