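import Cfsg.Agent.Lib.Helper21.OAsch.Defs
import Cfsg.Agent.Lib.Helper21.Asch.L14

set_option autoImplicit false

/-! # Orthogonal groups in odd dimension: the Gram matrix in tensor coordinates -/

namespace Cfsg.Agent.Lib.Helper21.OAsch

open Cfsg Cfsg.Geo Matrix Cfsg.Agent.Lib.Helper13.Asch Cfsg.Agent.Lib.Helper21.Asch
open scoped Kronecker MatrixGroups

variable {ι : Type} [Fintype ι] [DecidableEq ι] {F : Type*} [Field F]

/-- the Gram matrix in the coordinates given by `e` and `P` -/
def Gp {κ : Type} [Fintype κ] [DecidableEq κ] (e : ι ≃ κ) (P : GL ι F) (G : Matrix ι ι F) :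
    Matrix κ κ F :=
  Matrix.reindex e e ((P : Matrix ι ι F)ᵀ * G * (P : Matrix ι ι F))

end Cfsg.Agent.Lib.Helper21.OAsch
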