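import Cfsg.Agent.Lib.Helper21.OAsch.Defs2

set_option autoImplicit false

/-! # An invertible matrix normalising every tensor factor is a pure tensor -/

namespace Cfsg.Agent.Lib.Helper21.OAsch

open Cfsg Cfsg.Geo Matrix Cfsg.Agent.Lib.Helper13.Asch Cfsg.Agent.Lib.Helper21.Asch
open scoped Kronecker MatrixGroups

variable {F : Type*} [Field F]

/-- TW1 -/
theorem pure_of_normalizes {k t : ℕ} (ht : 0 < t) (h : GL (Fin t → Fin k) F)
    (hh : ∀ i, ∀ X : Matrix (Fin k) (Fin k) F, ∃ Y : Matrix (Fin k) (Fin k) F,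
      (h : Matrix (Fin t → Fin k) (Fin t → Fin k) F) * stdT i X *
        ((h⁻¹ : GL (Fin t → Fin k) F) : Matrix (Fin t → Fin k) (Fin t → Fin k) F) = stdT i Y) :
    ∃ A : Fin t → GL (Fin k) F, (h : Matrix (Fin t → Fin k) (Fin t → Fin k) F) =
      pureT (fun i => (A i : Matrix (Fin k) (Fin k) F)) := by
  by_cases hT : Nonempty (Fin t → Fin k)
  swap
  · rw [not_nonempty_iff] at hT
    exact ⟨fun _ => 1, Subsingleton.elim _ _⟩
  have hm : Nonempty (Fin k) := ⟨hT.some ⟨0, ht⟩⟩
  choose Y hY using hh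
  let α : ∀ i, Matrix (Fin k) (Fin k) F →ₐ[F] Matrix (Fin k) (Fin k) F := fun i =>
    AlgHom.ofLinearMap
      { toFun := Y i
        map_add' := fun X X' => stdT_injective i (by
          rw [← hY, stdT_add, stdT_add, mul_add, add_mul, hY, hY])
        map_smul' := fun c X => stdT_injective i (by
          simp only [RingHom.id_apply]
          rw [← hY, stdT_smul, stdT_smul, mul_smul_comm, smul_mul_assoc, hY]) }
      (stdT_injective i (by
        show stdT i (Y i 1) = _
        rw [← hY, stdT_one, mul_one, ← Units.val_mul, mul_inv_cancel]; rfl))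
      (fun X X' => stdT_injective i (by
        show stdT i (Y i (X * X')) = stdT i (Y i X * Y i X')
        rw [stdT_mul, ← hY, ← hY, ← hY, stdT_mul]
        simp [mul_assoc]))
  have hαinj : ∀ i, Function.Injective (α i) := fun i => (α i).toRingHom.injective
  have hαsurj : ∀ i, Function.Surjective (α i) := fun i =>
    (LinearMap.injective_iff_surjective (f := (α i).toLinearMap)).mp (hαinj i)
  have hin := fun i => (matrix_algEquiv_inner (AlgEquiv.ofBijective (α i) ⟨hαinj i, hαsurj i⟩)).2
  choose A B hAB hBA hf using hin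
  have hf' : ∀ i X, Y i X = A i * X * B i := fun i X => hf i X
  let gs : Fin t → GL (Fin k) F := fun j => ⟨A j, B j, hAB _, hBA _⟩
  let w : GL (Fin t → Fin k) F :=
    ⟨pureT A, pureT B,
      by
        rw [← pureT_mul, ← pureT_one]; congr 1; ext1 j; exact hAB _,
      by
        rw [← pureT_mul, ← pureT_one]; congr 1; ext1 j; exact hBA _⟩
  have key : ∀ i X, (h : Matrix (Fin t → Fin k) (Fin t → Fin k) F) * stdT i X *
      ((h⁻¹ : GL (Fin t → Fin k) F) : Matrix (Fin t → Fin k) (Fin t → Fin k) F) =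
      (w : Matrix (Fin t → Fin k) (Fin t → Fin k) F) * stdT i X *
      ((w⁻¹ : GL (Fin t → Fin k) F) : Matrix (Fin t → Fin k) (Fin t → Fin k) F) := by
    intro i X
    rw [hY, hf']
    exact (pureT_conj A B hAB i X).symm
  set z : GL (Fin t → Fin k) F := w⁻¹ * h with hz
  have hzc : ∀ i (X : Matrix (Fin k) (Fin k) F),
      Commute (z : Matrix (Fin t → Fin k) (Fin t → Fin k) F) (stdT i X) := by
    intro i X
    show (z : Matrix (Fin t → Fin k) (Fin t → Fin k) F) * stdT i X = stdT i X * z
    calc (z : Matrix (Fin t → Fin k) (Fin t → Fin k) F) * stdT i X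
        = ((w⁻¹ : GL (Fin t → Fin k) F) : Matrix (Fin t → Fin k) (Fin t → Fin k) F) *
          ((h : Matrix (Fin t → Fin k) (Fin t → Fin k) F) * stdT i X *
          ((h⁻¹ : GL (Fin t → Fin k) F) : Matrix (Fin t → Fin k) (Fin t → Fin k) F)) * h := by
          have e2 : ((h⁻¹ : GL (Fin t → Fin k) F) : Matrix (Fin t → Fin k) (Fin t → Fin k) F) *
              (h : Matrix (Fin t → Fin k) (Fin t → Fin k) F) = 1 := by
            rw [← Units.val_mul, inv_mul_cancel]; rfl
          rw [hz, Units.val_mul]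
          simp only [mul_assoc]
          rw [e2, mul_one]
      _ = stdT i X * z := by
          have e1 : ((w⁻¹ : GL (Fin t → Fin k) F) : Matrix (Fin t → Fin k) (Fin t → Fin k) F) *
              (w : Matrix (Fin t → Fin k) (Fin t → Fin k) F) = 1 := by
            rw [← Units.val_mul, inv_mul_cancel]; rfl
          rw [key, hz, Units.val_mul]
          calc _ = (((w⁻¹ : GL (Fin t → Fin k) F) : Matrix (Fin t → Fin k) (Fin t → Fin k) F) *
              (w : Matrix (Fin t → Fin k) (Fin t → Fin k) F)) * stdT i X *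
              (((w⁻¹ : GL (Fin t → Fin k) F) : Matrix (Fin t → Fin k) (Fin t → Fin k) F) * h) := by
                simp only [mul_assoc]
            _ = _ := by rw [e1, one_mul]
  obtain ⟨c, hc⟩ := scalar_of_commute_stdT _ hzc
  have hc0 : c ≠ 0 := by
    rintro rfl
    have h1 : (z : Matrix (Fin t → Fin k) (Fin t → Fin k) F) *
      ((z⁻¹ : GL (Fin t → Fin k) F) : Matrix (Fin t → Fin k) (Fin t → Fin k) F) = 1 := by
      rw [← Units.val_mul, mul_inv_cancel]; rfl
    rw [hc, zero_smul, zero_mul] at h1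
    exact zero_ne_one h1
  let u : GL (Fin k) F := ⟨c • 1, c⁻¹ • 1, by simp [hc0], by simp [hc0]⟩
  have hh' : h = w * z := by rw [hz]; group
  refine ⟨gs * Pi.mulSingle ⟨0, ht⟩ u, ?_⟩
  have h1 : (z : Matrix (Fin t → Fin k) (Fin t → Fin k) F) =
      pureT (Pi.mulSingle ⟨0, ht⟩ (c • 1)) := by
    rw [← stdT_eq_pureT, stdT_smul, stdT_one, hc]
  rw [hh', Units.val_mul, h1]
  show pureT A * _ = _
  rw [← pureT_mul]
  congr 1
  ext1 i
  by_cases hi : i = ⟨0, ht⟩
  · subst hi; simp [gs, u]
  · simp [Pi.mulSingle_eq_of_ne hi, gs]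

end Cfsg.Agent.Lib.Helper21.OAsch
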