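import Cfsg.Agent.Lib.Helper21.OAsch.MainCore
import Cfsg.Agent.Lib.Helper21.OAsch.Defs2
import Cfsg.Agent.Lib.Helper35.Asch.L7a
import Cfsg.Agent.Lib.Helper35.OAsch.TB3
import Cfsg.Agent.Lib.Helper65.OAsch.TW2
import Cfsg.Agent.Lib.Helper8.OAsch.TW3
import Cfsg.Agent.Lib.Helper8.OAsch.TW7
import Cfsg.Agent.Lib.Helper98.OAsch.TW8
import Cfsg.Agent.Lib.Helper98.OAsch.TW9
import Cfsg.Agent.Lib.Helper98.OAsch.TWF
import Cfsg.Agent.Lib.Helper35.OAsch.TT1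
import Cfsg.Agent.Lib.Helper35.OAsch.TT2
import Cfsg.Agent.Lib.Helper15.OAsch.TT3
import Cfsg.Agent.Lib.Helper15.OAsch.TT4
import Cfsg.Agent.Lib.Helper35.OAsch.TT5
import Cfsg.Agent.Lib.Helper35.OAsch.TT6

/-!
# Orthogonal Aschbacher theorem in odd dimension (assembly of stage B)
-/

set_option autoImplicit false

namespace Cfsg.Agent.Lib.Helper21.OAsch

open Cfsg Cfsg.Geo Matrix Cfsg.Agent.Lib.Helper13.Asch Cfsg.Agent.Lib.Helper21.Asch
open Cfsg.Agent.Lib.Helper8.OAsch Cfsg.Agent.Lib.Helper15.OAsch Cfsg.Agent.Lib.Helper35.OAsch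
  Cfsg.Agent.Lib.Helper65.OAsch Cfsg.Agent.Lib.Helper98.OAsch
open scoped Kronecker MatrixGroups

variable {ι : Type} [Fintype ι] [DecidableEq ι] {F : Type*} [Field F]
variable {Q : (ι → F) → F} {G : Matrix ι ι F}

/-- TWA -/
theorem c7_of_rawW [Fintype F] (hO : OData Q G) (H : Subgroup (GL ι F)) (hH : Iso G H)
    (h : RawW H) : C7 Q H := by
  obtain ⟨k, t, e, P, L, ht, hLH, hperf, hns, henv, hHW⟩ := h
  have hL : ∀ i, Iso G (L i) := fun i x hx => hH x (hLH i hx)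
  have hemb : ∀ i, ∀ x ∈ L i, ∃ X, (x : Matrix ι ι F) = embT e P i X := fun i x hx =>
    (henv i _).1 (Algebra.subset_adjoin ⟨x, hx, rfl⟩)
  obtain ⟨Γ, hΓ⟩ := gram_pure hO (by omega) e P L hL henv
  let i0 : Fin t := ⟨0, by omega⟩
  obtain ⟨hko, hk⟩ := three_le_of_rawW hO.odd e P i0 (L i0) (hns i0) (hemb i0)
  have hsym := pure_symm hko Γ (by rw [← hΓ]; exact (Gp_facts hO e P).1)
  refine c7_of_pure hO H hko hk ht ?_ e P Γ hΓ hHW
  rintro ⟨hq, rfl⟩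
  have hne : L i0 ≠ ⊥ := by
    intro hb
    exact hns i0 (hb ▸ bot_le)
  obtain ⟨S, h1, h2, h3⟩ := factor_group_W e P i0 (L i0) (hL i0) (hperf i0) hne (hemb i0) Γ hΓ
  exact h2 (no_perfect_O33 hq _ (hsym i0) ((Matrix.isUnit_iff_isUnit_det _).1 (Γ i0).isUnit) S h3 h1)

/-- TTA -/
theorem c4_or_c7_of_rawT [Fintype F] (hO : OData Q G) (H : Subgroup (GL ι F)) (hH : Iso G H)
    (h : RawT H) : C4 Q H ∨ C7 Q H := by
  obtain ⟨N, a, b, e, P, hNH, hperf, hns, ha, hb, henv, hHT⟩ := h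
  have hN : Iso G N := fun x hx => hH x (hNH hx)
  have hcard : Fintype.card ι = a * b := by
    have := Fintype.card_congr e
    simpa using this
  have hoab : Odd (a * b) := hcard ▸ hO.odd
  obtain ⟨hao, hbo⟩ := Nat.odd_mul.1 hoab
  have ha3 : 3 ≤ a := by
    obtain ⟨r, hr⟩ := hao
    omega
  have hb3 : 3 ≤ b := by
    obtain ⟨r, hr⟩ := hbo
    omega
  obtain ⟨G₁, G₂, hG⟩ := gram_kron hO e P N hN henv
  obtain ⟨h1, h2⟩ := kron_symm hao hbo G₁ G₂ (by rw [← hG]; exact (Gp_facts hO e P).1)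
  rcases lt_trichotomy a b with hlt | heq | hlt
  · exact Or.inl (c4_of_gram hO H e P ha3 hlt G₁ G₂ h1 h2 hG hHT)
  · subst heq
    right
    obtain ⟨k1, k2⟩ := Gp_two e P G₁ G₂ hG
    refine c7_of_pure hO H hao ha3 le_rfl ?_ _ P _ k1 (hHT.trans k2)
    rintro ⟨hq, rfl⟩
    have hne : N ≠ ⊥ := by
      intro hb
      exact hns (hb ▸ bot_le)
    obtain ⟨S, s1, s2, s3⟩ := factor_group_T e P N hN hperf hne
      (fun x hx => (henv _).1 (Algebra.subset_adjoin ⟨x, hx, rfl⟩)) G₁ G₂ hG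
    exact s2 (no_perfect_O33 hq _ h1 ((Matrix.isUnit_iff_isUnit_det _).1 G₁.isUnit) S s3 s1)
  · rw [Cfsg.Agent.Lib.Helper35.Asch.tensor_swap] at hHT
    exact Or.inl (c4_of_gram hO H _ P hb3 hlt G₂ G₁ h2 h1 (Gp_swap e P _ _ hG) hHT)

/-- MAIN -/
theorem main [Fintype F] (hO : OData Q G) (h2 : 2 ≤ Fintype.card ι) (H : Subgroup (GL ι F))
    (hH : Iso G H) (hsc : H ⊓ scalars ι F = ⊥) : OCls Q H ∨ InOrthogonalResidualClass H := by
  rcases main_core hO h2 H hH hsc with h | h | h | h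
  · exact Or.inl (Or.inl h)
  · exact Or.inl (Or.inr (c4_or_c7_of_rawT hO H hH h))
  · exact Or.inl (Or.inr (Or.inr (c7_of_rawW hO H hH h)))
  · exact Or.inr h

end Cfsg.Agent.Lib.Helper21.OAsch
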