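import Cfsg.Agent.Lib.Helper21.OAsch.Defs
import Cfsg.Agent.Lib.Helper55.Asch.FormCore
import Cfsg.Agent.Lib.Helper96.Asch.L0b

set_option autoImplicit false

/-! # A group fixing a symmetric and a unitary form is realisable over the fixed field -/

namespace Cfsg.Agent.Lib.Helper21.OAsch

open Cfsg Cfsg.Geo Matrix Cfsg.Agent.Lib.Helper13.Asch
open scoped Kronecker MatrixGroups

variable {ι : Type} [Fintype ι] [DecidableEq ι] {F : Type*} [Field F]
variable {Q : (ι → F) → F} {G : Matrix ι ι F}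

/-- the fixed field of a ring automorphism -/
def fixF (σ : F ≃+* F) : Subfield F where
  carrier := {x | σ x = x}
  mul_mem' := by intro a b ha hb; simp only [Set.mem_ofPred_eq] at *; rw [map_mul, ha, hb]
  one_mem' := by simp
  add_mem' := by intro a b ha hb; simp only [Set.mem_ofPred_eq] at *; rw [map_add, ha, hb]
  zero_mem' := by simp
  neg_mem' := by intro a ha; simp only [Set.mem_ofPred_eq] at *; rw [map_neg, ha]
  inv_mem' := by intro a ha; simp only [Set.mem_ofPred_eq] at *; rw [map_inv₀, ha]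

theorem map_map_id (σ : F ≃+* F) (hinv : ∀ a, σ (σ a) = a) (X : Matrix ι ι F) :
    (X.map (σ : F →+* F)).map (σ : F →+* F) = X := by
  ext i j
  simp [hinv]

/-- a normalised semilinear involution commuting with `N` gives a realisation over the fixed
field -/
theorem descent_one [Finite F] (N : Subgroup (GL ι F)) (σ : F ≃+* F)
    (hne : σ ≠ RingEquiv.refl F) (hinv : ∀ a, σ (σ a) = a) (T : Matrix ι ι F)
    (hTT : T * T.map (σ : F →+* F) = 1)
    (hTs : ∀ s ∈ N, (s : Matrix ι ι F) * T = T * (s : Matrix ι ι F).map (σ : F →+* F)) :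
    RealisableOver (fixF σ) (matrixSet N) := by
  classical
  set φ : (ι → F) → (ι → F) := fun v => T *ᵥ (fun i => σ (v i)) with hφ
  have hφadd : ∀ u v, φ (u + v) = φ u + φ v := by
    intro u v
    simp only [hφ]
    rw [← Matrix.mulVec_add]
    congr 1
    ext i; simp
  have hφsmul : ∀ (a : F) v, φ (a • v) = σ a • φ v := by
    intro a v
    simp only [hφ]
    rw [← Matrix.mulVec_smul]
    congr 1
    ext i; simp
  have hφφ : ∀ v, φ (φ v) = v := by
    intro v
    simp only [hφ]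
    have h1 : (fun i => σ ((T *ᵥ fun i => σ (v i)) i)) =
        T.map (σ : F →+* F) *ᵥ (fun i => σ (σ (v i))) := by
      ext i
      exact RingHom.map_mulVec (σ : F →+* F) T (fun i => σ (v i)) i
    rw [h1, Matrix.mulVec_mulVec, hTT]
    simp [hinv]
  obtain ⟨θ, hθ⟩ : ∃ θ, σ θ ≠ θ := by
    by_contra hcon
    push Not at hcon
    exact hne (RingEquiv.ext hcon)
  set V₀ : Set (ι → F) := {v | φ v = v} with hV₀
  have hspan : Submodule.span F V₀ = ⊤ := by
    rw [eq_top_iff]
    intro v _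
    have h1 : v + φ v ∈ V₀ := by
      show φ (v + φ v) = v + φ v
      rw [hφadd, hφφ, add_comm]
    have h2 : θ • v + φ (θ • v) ∈ V₀ := by
      show φ (θ • v + φ (θ • v)) = θ • v + φ (θ • v)
      rw [hφadd, hφφ, add_comm]
    have h3 : v = (σ θ - θ)⁻¹ • (σ θ • (v + φ v) - (θ • v + φ (θ • v))) := by
      have h4 : σ θ • (v + φ v) - (θ • v + φ (θ • v)) = (σ θ - θ) • v := by
        rw [hφsmul, smul_add, sub_smul]; abel
      rw [h4, smul_smul, inv_mul_cancel₀ (sub_ne_zero.2 hθ), one_smul]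
    rw [h3]
    exact Submodule.smul_mem _ _ (Submodule.sub_mem _
      (Submodule.smul_mem _ _ (Submodule.subset_span h1)) (Submodule.subset_span h2))
  obtain ⟨b, hbV, hbspan, hbli⟩ := exists_linearIndependent F V₀
  have hsp : ⊤ ≤ Submodule.span F (Set.range (Subtype.val : b → (ι → F))) := by
    rw [Subtype.range_val, hbspan, hspan]
  let B := Module.Basis.mk hbli hsp
  have : Finite b := Finite.of_injective (Subtype.val : b → (ι → F)) Subtype.val_injective
  have : Fintype b := Fintype.ofFinite b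
  have hcard : Fintype.card ι = Fintype.card b := by
    rw [← Module.finrank_eq_card_basis B, Module.finrank_fintype_fun_eq_card]
  let eqv : ι ≃ b := Fintype.equivOfCardEq hcard
  let B' : Module.Basis ι F (ι → F) := B.reindex eqv.symm
  have hB'V : ∀ j, φ (B' j) = B' j := by
    intro j
    have : B' j = ((eqv j : b) : ι → F) := by
      simp [B', B]
    rw [this]
    exact hbV (eqv j).2
  set C : Matrix ι ι F := (Pi.basisFun F ι).toMatrix B' with hC
  set D : Matrix ι ι F := B'.toMatrix (Pi.basisFun F ι) with hD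
  have hCD : C * D = 1 := Module.Basis.toMatrix_mul_toMatrix_flip _ _
  have hDC : D * C = 1 := Module.Basis.toMatrix_mul_toMatrix_flip _ _
  have hCij : ∀ i j, C i j = B' j i := by
    intro i j
    simp [hC, Module.Basis.toMatrix_apply]
  have hTC : T * C.map (σ : F →+* F) = C := by
    ext i j
    have := congrFun (hB'V j) i
    rw [hCij, ← this]
    simp only [hφ, Matrix.mul_apply, Matrix.mulVec, dotProduct, Matrix.map_apply, hCij]
    rfl
  refine ⟨⟨D, C, hDC, hCD⟩, ?_⟩
  rintro _ ⟨s, hs, rfl⟩ i j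
  show σ ((D * (s : Matrix ι ι F) * C) i j) = (D * (s : Matrix ι ι F) * C) i j
  obtain ⟨X, hX⟩ : ∃ X : Matrix ι ι F, X = D * (s : Matrix ι ι F) * C := ⟨_, rfl⟩
  rw [← hX]
  have h1 : C * X = (s : Matrix ι ι F) * C := by
    rw [hX, ← mul_assoc, ← mul_assoc, hCD, one_mul]
  have h2 : C * X.map (σ : F →+* F) = C * X := by
    have h3 : C.map (σ : F →+* F) * X.map (σ : F →+* F) =
        (s : Matrix ι ι F).map (σ : F →+* F) * C.map (σ : F →+* F) := by
      rw [← Matrix.map_mul, ← Matrix.map_mul, h1]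
    calc C * X.map (σ : F →+* F) = T * (C.map (σ : F →+* F) * X.map (σ : F →+* F)) := by
          rw [← mul_assoc, hTC]
      _ = T * ((s : Matrix ι ι F).map (σ : F →+* F) * C.map (σ : F →+* F)) := by rw [h3]
      _ = (s : Matrix ι ι F) * (T * C.map (σ : F →+* F)) := by
          rw [← mul_assoc, ← hTs s hs, mul_assoc]
      _ = C * X := by rw [hTC, h1]
  have h4 : X.map (σ : F →+* F) = X := by
    have := congrArg (fun M => D * M) h2
    simpa [← mul_assoc, hDC] using this
  exact congrFun (congrFun h4 i) j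

theorem descent [Finite F] (hodd : Odd (Fintype.card ι)) (N : Subgroup (GL ι F))
    (henv : env N = ⊤) (σ : F ≃+* F)
    (hne : σ ≠ RingEquiv.refl F) (hinv : ∀ a, σ (σ a) = a) (T : Matrix ι ι F)
    (hT : IsUnit T.det)
    (hTs : ∀ s ∈ N, (s : Matrix ι ι F) * T = T * (s : Matrix ι ι F).map (σ : F →+* F)) :
    RealisableOver (fixF σ) (matrixSet N) := by
  have hι : Nonempty ι := by
    rw [← Fintype.card_pos_iff]
    exact hodd.pos
  obtain ⟨i0⟩ := id hι
  obtain ⟨Ts, hTsdef⟩ : ∃ Ts, Ts = T.map (σ : F →+* F) := ⟨_, rfl⟩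
  have hTsmap : Ts.map (σ : F →+* F) = T := by rw [hTsdef, map_map_id σ hinv]
  have hM : ∀ s ∈ N, (T * Ts) * (s : Matrix ι ι F) = (s : Matrix ι ι F) * (T * Ts) := by
    intro s hs
    have h1 := hTs s hs
    have h2 : (s : Matrix ι ι F).map (σ : F →+* F) * Ts = Ts * (s : Matrix ι ι F) := by
      have h3 := congrArg (fun M : Matrix ι ι F => M.map (σ : F →+* F)) h1
      simp only [Matrix.map_mul, map_map_id σ hinv] at h3
      rw [hTsdef]
      exact h3
    calc T * Ts * (s : Matrix ι ι F) = T * (Ts * (s : Matrix ι ι F)) := mul_assoc _ _ _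
      _ = T * ((s : Matrix ι ι F).map (σ : F →+* F) * Ts) := by rw [h2]
      _ = (T * (s : Matrix ι ι F).map (σ : F →+* F)) * Ts := (mul_assoc _ _ _).symm
      _ = (s : Matrix ι ι F) * T * Ts := by rw [← h1]
      _ = (s : Matrix ι ι F) * (T * Ts) := mul_assoc _ _ _
  obtain ⟨c, hc⟩ := Cfsg.Agent.Lib.Helper96.Asch.scalar_of_commute henv _ hM
  have hdetTs : Ts.det = σ T.det := by
    rw [hTsdef]
    exact ((σ : F →+* F).map_det T).symm
  have hdet : T.det * σ T.det = c ^ Fintype.card ι := by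
    have h1 := congrArg Matrix.det hc
    rw [Matrix.det_mul, Matrix.det_smul, Matrix.det_one, mul_one, hdetTs] at h1
    exact h1
  have hT0 : T.det ≠ 0 := hT.ne_zero
  have hc0 : c ≠ 0 := by
    rintro rfl
    rw [zero_pow (Fintype.card_ne_zero (α := ι))] at hdet
    rcases mul_eq_zero.1 hdet with h | h
    · exact hT0 h
    · exact hT0 ((map_eq_zero σ).1 h)
  have hc' : Ts * T = c • 1 := by
    have h1 : T * (Ts * T) = T * (c • 1) := by
      rw [← mul_assoc, hc, smul_mul_assoc, one_mul, mul_smul_comm, mul_one]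
    have hTu : IsUnit T := (Matrix.isUnit_iff_isUnit_det T).2 hT
    exact hTu.mul_left_cancel h1
  have hσc : σ c = c := by
    have h1 := congrArg (fun M : Matrix ι ι F => M.map (σ : F →+* F)) hc
    simp only [Matrix.map_mul, hTsmap] at h1
    rw [← hTsdef, hc'] at h1
    have h2 := congrFun (congrFun h1 i0) i0
    simp at h2
    exact h2.symm
  obtain ⟨k, hk⟩ := hodd
  obtain ⟨d, hddef⟩ : ∃ d, d = T.det * (c⁻¹) ^ k := ⟨_, rfl⟩
  have hd : d * σ d = c := by
    rw [hddef, map_mul, map_pow, map_inv₀, hσc]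
    calc T.det * c⁻¹ ^ k * (σ T.det * c⁻¹ ^ k) = (T.det * σ T.det) * (c⁻¹ ^ k * c⁻¹ ^ k) := by ring
      _ = c := by
        rw [hdet, hk, ← mul_pow, pow_succ, pow_mul, mul_right_comm, ← mul_pow]
        have : c ^ 2 * (c⁻¹ * c⁻¹) = 1 := by field_simp
        rw [this, one_pow, one_mul]
  have hd0 : d ≠ 0 := by
    rintro rfl
    rw [zero_mul] at hd
    exact hc0 hd.symm
  have hσd0 : σ d ≠ 0 := fun h => hd0 ((map_eq_zero σ).1 h)
  apply descent_one N σ hne hinv (d⁻¹ • T)
  · have h1 : (d⁻¹ • T).map (σ : F →+* F) = (σ d)⁻¹ • Ts := by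
      rw [hTsdef]
      ext i j
      simp
    rw [h1, smul_mul_smul_comm, hc, smul_smul, ← hd]
    have : d⁻¹ * (σ d)⁻¹ * (d * σ d) = 1 := by field_simp
    rw [this, one_smul]
  · intro s hs
    have h1 : (d⁻¹ • T) * (s : Matrix ι ι F).map (σ : F →+* F) =
        d⁻¹ • (T * (s : Matrix ι ι F).map (σ : F →+* F)) := smul_mul_assoc _ _ _
    rw [h1, ← hTs s hs, mul_smul_comm]

/-- O12 -/
theorem realisable_of_unitary [Fintype F] (hO : OData Q G) (N : Subgroup (GL ι F))
    (henv : env N = ⊤) (hN : Iso G N) (σ : F ≃+* F) (u : (ι → F) → (ι → F) → F)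
    (hu : IsUnitaryForm σ u) (hfix : FixesForm (matrixSet N) u) :
    ∃ F₀ : Subfield F, F₀ ≠ ⊤ ∧ RealisableOver F₀ (matrixSet N) := by
  refine ⟨fixF σ, ?_, ?_⟩
  · intro htop
    apply hu.ne_refl
    ext x
    have : x ∈ fixF σ := by rw [htop]; trivial
    exact this
  have hE : ∀ x y, u x y = gform (σ : F →+* F) (Cfsg.Agent.Lib.Helper55.Asch.gram u) x y :=
    Cfsg.Agent.Lib.Helper55.Asch.eq_gform (σ : F →+* F) u hu.add_left hu.smul_left
      (fun v x y => by rw [hu.herm v (x + y), hu.add_left, map_add, ← hu.herm, ← hu.herm])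
      (fun c v x => by
        rw [hu.herm v (c • x), hu.smul_left, map_mul, ← hu.herm]; rfl)
  obtain ⟨U, hUdef⟩ : ∃ U, U = Cfsg.Agent.Lib.Helper55.Asch.gram u := ⟨_, rfl⟩
  rw [← hUdef] at hE
  have hU : IsUnit U.det := by
    apply Cfsg.Agent.Lib.Helper55.Asch.isUnit_det_of_nondeg σ
    intro v hv
    obtain ⟨x, hx⟩ := (hu.nondegenerate v hv).1
    exact ⟨x, by rwa [← hE]⟩
  have hUinv : ∀ x ∈ N, (x : Matrix ι ι F)ᵀ * U * (x : Matrix ι ι F).map (σ : F →+* F) = U := by
    intro x hx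
    apply Cfsg.Agent.Lib.Helper55.Asch.gform_ext (σ : F →+* F)
    intro a b
    rw [← Cfsg.Agent.Lib.Helper55.Asch.gform_mulVec, ← hE, ← hE]
    exact hfix _ ⟨x, hx, rfl⟩ a b
  have hGu : IsUnit G := (Matrix.isUnit_iff_isUnit_det G).2 hO.unit
  have hGG : G⁻¹ * G = 1 := Matrix.nonsing_inv_mul G hO.unit
  have hGG' : G * G⁻¹ = 1 := Matrix.mul_nonsing_inv G hO.unit
  apply descent hO.odd N henv σ hu.ne_refl hu.involutive (G⁻¹ * U)
  · rw [Matrix.det_mul]
    exact (Matrix.isUnit_nonsing_inv_det G hO.unit).mul hU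
  · intro s hs
    -- s G⁻¹ sᵀ = G⁻¹
    have h1 := hN s hs
    have hss : ((s⁻¹ : GL ι F) : Matrix ι ι F) * (s : Matrix ι ι F) = 1 := by
      rw [← Units.val_mul, inv_mul_cancel]; rfl
    have hss' : (s : Matrix ι ι F) * ((s⁻¹ : GL ι F) : Matrix ι ι F) = 1 := by
      rw [← Units.val_mul, mul_inv_cancel]; rfl
    have h2 : (s : Matrix ι ι F)ᵀ * G = G * ((s⁻¹ : GL ι F) : Matrix ι ι F) := by
      calc (s : Matrix ι ι F)ᵀ * G = (s : Matrix ι ι F)ᵀ * G * ((s : Matrix ι ι F) *
            ((s⁻¹ : GL ι F) : Matrix ι ι F)) := by rw [hss', mul_one]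
        _ = ((s : Matrix ι ι F)ᵀ * G * (s : Matrix ι ι F)) * ((s⁻¹ : GL ι F) : Matrix ι ι F) := by
            simp only [mul_assoc]
        _ = _ := by rw [h1]
    have h3 : (s : Matrix ι ι F) * G⁻¹ * (s : Matrix ι ι F)ᵀ = G⁻¹ := by
      calc (s : Matrix ι ι F) * G⁻¹ * (s : Matrix ι ι F)ᵀ
          = (s : Matrix ι ι F) * G⁻¹ * ((s : Matrix ι ι F)ᵀ * G) * G⁻¹ := by
            rw [mul_assoc _ _ G⁻¹, mul_assoc _ G G⁻¹, hGG', mul_one]
        _ = (s : Matrix ι ι F) * (G⁻¹ * G) * ((s⁻¹ : GL ι F) : Matrix ι ι F) * G⁻¹ := by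
            rw [h2]; simp only [mul_assoc]
        _ = G⁻¹ := by rw [hGG, mul_one, hss', one_mul]
    calc (s : Matrix ι ι F) * (G⁻¹ * U)
        = (s : Matrix ι ι F) * G⁻¹ * ((s : Matrix ι ι F)ᵀ * U *
          (s : Matrix ι ι F).map (σ : F →+* F)) := by rw [hUinv s hs, mul_assoc]
      _ = ((s : Matrix ι ι F) * G⁻¹ * (s : Matrix ι ι F)ᵀ) * U *
          (s : Matrix ι ι F).map (σ : F →+* F) := by simp only [mul_assoc]
      _ = G⁻¹ * U * (s : Matrix ι ι F).map (σ : F →+* F) := by rw [h3]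

end Cfsg.Agent.Lib.Helper21.OAsch
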