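import Cfsg.Agent.Lib.Helper21.OAsch.Defs
import Cfsg.Agent.Lib.Helper60.Asch.G2
import Cfsg.Agent.Lib.Helper12.Asch.K2a
import Cfsg.Agent.Lib.Helper58.OAsch.O1
import Cfsg.Agent.Lib.Helper69.OAsch.O10
import Cfsg.Agent.Lib.Helper96.OAsch.O13
import Cfsg.Agent.Lib.Helper96.OAsch.O14
import Cfsg.Agent.Lib.Helper10.OAsch.O15a
import Cfsg.Agent.Lib.Helper10.OAsch.O15b
import Cfsg.Agent.Lib.Helper96.OAsch.O15c
import Cfsg.Agent.Lib.Helper96.OAsch.O15d

/-!
# Orthogonal Aschbacher, odd dimension: the core dichotomy (assembly of stage A)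
-/

set_option autoImplicit false

namespace Cfsg.Agent.Lib.Helper21.OAsch

open Cfsg Cfsg.Geo Matrix Cfsg.Agent.Lib.Helper13.Asch
open Cfsg.Agent.Lib.Helper58.OAsch Cfsg.Agent.Lib.Helper69.OAsch Cfsg.Agent.Lib.Helper96.OAsch
  Cfsg.Agent.Lib.Helper10.OAsch
open scoped Kronecker MatrixGroups

variable {ι : Type} [Fintype ι] [DecidableEq ι] {F : Type*} [Field F]
variable {Q : (ι → F) → F} {G : Matrix ι ι F}

/-- O15 -/
theorem main_core [Fintype F] (hO : OData Q G) (h2 : 2 ≤ Fintype.card ι) (H : Subgroup (GL ι F))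
    (hH : Iso G H) (hsc : H ⊓ scalars ι F = ⊥) :
    OBasic Q H ∨ RawT H ∨ RawW H ∨ InOrthogonalResidualClass H := by
  by_cases hirr : ActsIrreducibly (matrixSet H)
  swap
  · rcases reducible_case hO hH hirr with h | h
    · exact Or.inl (Or.inl h)
    · exact Or.inl (Or.inr (Or.inl h))
  have hnsc : ¬ H ≤ scalars ι F := fun h => not_irr_of_le_scalars h2 h hirr
  obtain ⟨N, hN⟩ := Cfsg.Agent.Lib.Helper60.Asch.exists_minNormal H hnsc
  rcases perfect_or_abelian hsc hN with hperf | hab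
  swap
  · exact Or.inl (abelian_case hO h2 H N hH hirr hN.le hN.nrm hN.not_sc hab)
  rcases normal_analysis hO H N hH hirr hN.le hN.nrm hN.not_sc with h | henv | ⟨a, b, e, P, ha, hb, h1, h2⟩
  · exact Or.inl h
  swap
  · exact Or.inr (Or.inl ⟨N, a, b, e, P, hN.le, hperf, hN.not_sc, ha, hb, h1, h2⟩)
  by_cases hs : ∀ L : Subgroup (GL ι F), H ⊓ scalars ι F ≤ L → L ≤ N → Nrm N L →
      L = H ⊓ scalars ι F ∨ L = N
  · rcases residual_of_simple_orth hO hH hN henv hperf hs with h | h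
    · exact Or.inl (Or.inr (Or.inr (Or.inr (Or.inr (Or.inr h)))))
    · exact Or.inr (Or.inr (Or.inr h))
  · have hperf' : ¬ ⁅N, N⁆ ≤ scalars ι F := by rw [hperf]; exact hN.not_sc
    obtain ⟨t, P, ht, h1, h2', h3, h4, h5, h6⟩ := Cfsg.Agent.Lib.Helper12.Asch.exists_family hN hperf' hs
    obtain ⟨g1, g2, g3, g4⟩ := iSup_facts ht P h1 h3 h5 h6
    rcases normal_analysis hO H _ hH hirr g1 g2 g3 with h | henv0 | ⟨a, b, e, Pm, ha, hb, k1, k2⟩
    · exact Or.inl h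
    swap
    · exact Or.inr (Or.inl ⟨_, a, b, e, Pm, g1, g4, g3, ha, hb, k1, k2⟩)
    have : Nonempty ι := by
      rw [← Fintype.card_pos_iff]; omega
    obtain ⟨m, e, Pm, k1, k2⟩ := tensor_frame' ht P henv0 h2' h3 h4
    exact Or.inr (Or.inr (Or.inl ⟨m, t, e, Pm, P, ht, h1, h6, h5, k2, k1⟩))

end Cfsg.Agent.Lib.Helper21.OAsch
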