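import Cfsg.Agent.Lib.Helper21.OAsch.MainCore
import Cfsg.Agent.Lib.Helper55.Asch.DecCore
import Cfsg.Agent.Lib.Helper58.Asch.D6
import Cfsg.Agent.Lib.Helper8.OAsch.B0a
import Cfsg.Agent.Lib.Helper8.OAsch.B0b
import Cfsg.Agent.Lib.Helper8.OAsch.B0c
import Cfsg.Agent.Lib.Helper8.OAsch.B0d
import Cfsg.Agent.Lib.Helper10.OAsch.R0
import Cfsg.Agent.Lib.Helper51.OAsch.R1
import Cfsg.Agent.Lib.Helper51.OAsch.R3
import Cfsg.Agent.Lib.Helper51.OAsch.R4
import Cfsg.Agent.Lib.Helper10.OAsch.R9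
import Cfsg.Agent.Lib.Helper10.OAsch.R10

/-!
# Maximal subgroups of `Ω_{2m+1}(q)`, `q` odd, `2m+1` prime (assembly of stage C)
-/

set_option autoImplicit false

namespace Cfsg.Agent.Lib.Helper21.OAsch

open Cfsg Cfsg.Geo Matrix Cfsg.Agent.Lib.Helper13.Asch
open Cfsg.Agent.Lib.Helper8.OAsch Cfsg.Agent.Lib.Helper10.OAsch Cfsg.Agent.Lib.Helper51.OAsch
open scoped Kronecker MatrixGroups

variable {ι : Type} [Fintype ι] [DecidableEq ι] {F : Type*} [Field F]
variable {Q : (ι → F) → F} {G : Matrix ι ι F}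

/-- ROWP -/
theorem row_prime [Fintype F] (hodd : Odd (Fintype.card F)) (m : ℕ) (hm : 3 ≤ m)
    (hp : (2 * m + 1).Prime) (H : Subgroup (GL (Unit ⊕ (Fin m ⊕ Fin m)) F))
    (hH : IsMaximalIn (omegaGL (quadFormOdd m F)) H) :
    (∃ W : Submodule F (Unit ⊕ (Fin m ⊕ Fin m) → F), W ≠ ⊥ ∧
      IsTotallySingularQuad (quadFormOdd m F) W ∧
      H = subspaceStabilizer W ⊓ omegaGL (quadFormOdd m F)) ∨
    (∃ W : Submodule F (Unit ⊕ (Fin m ⊕ Fin m) → F), W ≠ ⊥ ∧ Even (Module.finrank F W) ∧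
      IsNondegenerateOn (QuadraticMap.polar (quadFormOdd m F)) W ∧
      ¬ (Fintype.card F = 3 ∧ Module.finrank F W = 2 ∧ IsPlusTypeOn (quadFormOdd m F) W) ∧
      H = subspaceStabilizer W ⊓ omegaGL (quadFormOdd m F)) ∨
    ((Fintype.card F).Prime ∧ ∃ D : Fin (2 * m + 1) → Submodule F (Unit ⊕ (Fin m ⊕ Fin m) → F),
      IsOrthogonalMDecomposition (quadFormOdd m F) 1 D ∧
      H = decompositionStabilizer D ⊓ omegaGL (quadFormOdd m F)) ∨
    (∃ (F₀ : Subfield F) (r : ℕ) (P : GL (Unit ⊕ (Fin m ⊕ Fin m)) F), r.Prime ∧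
      Fintype.card F = Nat.card F₀ ^ r ∧ IsQuadFormRationalStructure (quadFormOdd m F) F₀ P ∧
      H = subfieldSubgroup F₀ P ⊓ omegaGL (quadFormOdd m F)) ∨
    InOrthogonalResidualClass H := by
  have hO := odata_odd (F := F) hodd m
  have hcard : Fintype.card (Unit ⊕ (Fin m ⊕ Fin m)) = 2 * m + 1 := by simp; ring
  have hHΩ : H ≤ omegaGL (quadFormOdd m F) := hH.1.le
  have hiso : Iso _ H := iso_of_le hO (hHΩ.trans (omegaGL_le_isometry _))
  have hsc := inf_scalars_eq_bot hO hHΩ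
  have hraw := not_raw_of_prime (F := F) (ι := Unit ⊕ (Fin m ⊕ Fin m)) (by rw [hcard]; exact hp) H
  rcases main_core hO (by rw [hcard]; omega) H hiso hsc with h | h | h | h
  · rcases h with ⟨W, h0, h1, h2⟩ | h | ⟨k, hk, t, D, hD, hHD⟩ | ⟨hq, t, D, hD, hHD⟩ |
      ⟨r, K, hr, hne, hK, -, -⟩ | ⟨F₀, r, P, hr, hc, hP, hHP⟩
    · exact Or.inl ⟨W, h0, h1, eq_inf_of_maximal' hH h2 (not_le_singular hodd m hm W h0 h1)⟩
    · obtain ⟨W, h0, h1, hev, hnd, hex, hHW⟩ := even_nondeg hO (by rw [hcard]; omega) hiso h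
      exact Or.inr (Or.inl ⟨W, h0, hev, hnd, hex,
        eq_inf_of_maximal' hH hHW (not_le_nondeg hodd m hm W h0 h1 hnd)⟩)
    · exfalso
      have h1 := Cfsg.Agent.Lib.Helper55.Asch.card_of_decomp D hD.decomp.decomp
      rw [hcard] at h1
      have h2 := hD.decomp.decomp.two_le
      have hkd : k ∣ 2 * m + 1 := ⟨t, by rw [← h1]; ring⟩
      rcases (Nat.dvd_prime hp).1 hkd with h3 | h3
      · omega
      · rw [h3] at h1
        have : t = 1 := by
          have h4 : t * (2 * m + 1) = 1 * (2 * m + 1) := by rw [h1]; ring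
          exact Nat.eq_of_mul_eq_mul_right (by omega) h4
        omega
    · have h1 := Cfsg.Agent.Lib.Helper55.Asch.card_of_decomp D hD.decomp.decomp
      rw [hcard, mul_one] at h1
      subst h1
      exact Or.inr (Or.inr (Or.inl ⟨hq, D, hD,
        eq_inf_of_maximal' hH hHD (not_le_decomp hodd m hm D hD)⟩))
    · exfalso
      have h1 := Cfsg.Agent.Lib.Helper58.Asch.dvd_card_of_field K hK
      rw [hcard] at h1 hne
      rcases (Nat.dvd_prime hp).1 h1 with h3 | h3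
      · exact hr.one_lt.ne' h3
      · exact hne h3.symm
    · exact Or.inr (Or.inr (Or.inr (Or.inl ⟨F₀, r, P, hr, hc, hP,
        eq_inf_of_maximal' hH hHP (not_le_subfield hodd m hm F₀ r hr hc P hP)⟩)))
  · exact (hraw.1 h).elim
  · exact (hraw.2 h).elim
  · exact Or.inr (Or.inr (Or.inr (Or.inr h)))

end Cfsg.Agent.Lib.Helper21.OAsch
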