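import Cfsg.Agent.Lib.Helper21.OAsch.Main
import Cfsg.Agent.Lib.Helper21.OAsch.RowPrime
import Cfsg.Agent.Lib.Helper64.OAsch.R

/-!
# Maximal subgroups of `Ω_9(q)`, `q` odd (assembly of stage D)
-/

set_option autoImplicit false

namespace Cfsg.Agent.Lib.Helper21.OAsch

open Cfsg Cfsg.Geo Matrix Cfsg.Agent.Lib.Helper13.Asch Cfsg.Agent.Lib.Helper21.Asch
open Cfsg.Agent.Lib.Helper8.OAsch Cfsg.Agent.Lib.Helper10.OAsch Cfsg.Agent.Lib.Helper51.OAsch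
  Cfsg.Agent.Lib.Helper58.OAsch Cfsg.Agent.Lib.Helper64.OAsch
open scoped Kronecker MatrixGroups

variable {ι : Type} [Fintype ι] [DecidableEq ι] {F : Type*} [Field F]
variable {Q : (ι → F) → F} {G : Matrix ι ι F}

theorem five_le_of_odd {q : ℕ} (hodd : Odd q) (h1 : 1 < q) (h3 : q ≠ 3) : 5 ≤ q := by
  obtain ⟨r, hr⟩ := hodd
  omega

theorem nine_mul {t k : ℕ} (h : t * k = 9) (ht : 2 ≤ t) (hk : 1 < k) : t = 3 ∧ k = 3 := by
  have ht9 : t ≤ 9 := Nat.le_of_dvd (by norm_num) ⟨k, h.symm⟩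
  have hk9 : k ≤ 9 := Nat.le_of_dvd (by norm_num) ⟨t, by rw [← h]; ring⟩
  interval_cases t <;> interval_cases k <;> simp_all

theorem nine_pow {t k : ℕ} (h : k ^ t = 9) (ht : 2 ≤ t) (hk : 3 ≤ k) : t = 2 ∧ k = 3 := by
  have hk9 : k ≤ 3 := by
    by_contra hc
    have h4 : 4 ≤ k := by omega
    have : 4 ^ 2 ≤ k ^ t := (Nat.pow_le_pow_left h4 2).trans (Nat.pow_le_pow_right (by omega) ht)
    omega
  have hk3 : k = 3 := le_antisymm hk9 hk
  subst hk3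
  refine ⟨?_, rfl⟩
  have : (3:ℕ) ^ t = 3 ^ 2 := by rw [h]; norm_num
  exact Nat.pow_right_injective (by norm_num : 2 ≤ 3) this

/-- ROW9 -/
theorem row_nine [Fintype F] (hodd : Odd (Fintype.card F))
    (H : Subgroup (GL (Unit ⊕ (Fin 4 ⊕ Fin 4)) F))
    (hH : IsMaximalIn (omegaGL (quadFormOdd 4 F)) H) :
    (∃ W : Submodule F (Unit ⊕ (Fin 4 ⊕ Fin 4) → F), W ≠ ⊥ ∧
      IsTotallySingularQuad (quadFormOdd 4 F) W ∧
      H = subspaceStabilizer W ⊓ omegaGL (quadFormOdd 4 F)) ∨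
    (∃ W : Submodule F (Unit ⊕ (Fin 4 ⊕ Fin 4) → F), W ≠ ⊥ ∧ Even (Module.finrank F W) ∧
      IsNondegenerateOn (QuadraticMap.polar (quadFormOdd 4 F)) W ∧
      ¬ (Fintype.card F = 3 ∧ Module.finrank F W = 2 ∧ IsPlusTypeOn (quadFormOdd 4 F) W) ∧
      H = subspaceStabilizer W ⊓ omegaGL (quadFormOdd 4 F)) ∨
    ((Fintype.card F).Prime ∧ ∃ D : Fin 9 → Submodule F (Unit ⊕ (Fin 4 ⊕ Fin 4) → F),
      IsOrthogonalMDecomposition (quadFormOdd 4 F) 1 D ∧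
      H = decompositionStabilizer D ⊓ omegaGL (quadFormOdd 4 F)) ∨
    (5 ≤ Fintype.card F ∧ ∃ D : Fin 3 → Submodule F (Unit ⊕ (Fin 4 ⊕ Fin 4) → F),
      IsOrthogonalMDecomposition (quadFormOdd 4 F) 3 D ∧
      H = decompositionStabilizer D ⊓ omegaGL (quadFormOdd 4 F)) ∨
    (∃ K : Subalgebra F (Matrix (Unit ⊕ (Fin 4 ⊕ Fin 4)) (Unit ⊕ (Fin 4 ⊕ Fin 4)) F),
      IsFieldSubalgebra 3 K ∧ IsSelfAdjointFor (QuadraticMap.polar (quadFormOdd 4 F)) K ∧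
      H = subalgebraNormalizer K ⊓ omegaGL (quadFormOdd 4 F)) ∨
    (∃ (F₀ : Subfield F) (r : ℕ) (P : GL (Unit ⊕ (Fin 4 ⊕ Fin 4)) F), r.Prime ∧
      Fintype.card F = Nat.card F₀ ^ r ∧ IsQuadFormRationalStructure (quadFormOdd 4 F) F₀ P ∧
      H = subfieldSubgroup F₀ P ⊓ omegaGL (quadFormOdd 4 F)) ∨
    (5 ≤ Fintype.card F ∧ ∃ (e : (Unit ⊕ (Fin 4 ⊕ Fin 4)) ≃ (Fin 2 → Fin 3))
      (P : GL (Unit ⊕ (Fin 4 ⊕ Fin 4)) F) (f₁ : (Fin 3 → F) → (Fin 3 → F) → F),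
      IsSymmetricForm f₁ ∧
      IsTensorPowerFormStructure id (QuadraticMap.polar (quadFormOdd 4 F)) f₁ e P ∧
      H = tensorWreathSubgroup 3 2 e P ⊓ omegaGL (quadFormOdd 4 F)) ∨
    InOrthogonalResidualClass H := by
  have hO := odata_odd (F := F) hodd 4
  have hcard : Fintype.card (Unit ⊕ (Fin 4 ⊕ Fin 4)) = 9 := by simp
  have hHΩ : H ≤ omegaGL (quadFormOdd 4 F) := hH.1.le
  have hI : H ≤ isometryGroup F (quadFormOdd 4 F) := hHΩ.trans (omegaGL_le_isometry _)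
  have hiso : Iso _ H := iso_of_le hO hI
  have hsc := inf_scalars_eq_bot hO hHΩ
  have hq1 : 1 < Fintype.card F := Fintype.one_lt_card
  have key : C1a (quadFormOdd 4 F) H ∨ C1b (quadFormOdd 4 F) H ∨
      (5 ≤ Fintype.card F ∧ CDec (quadFormOdd 4 F) H 3) ∨ C2b (quadFormOdd 4 F) H ∨
      C3 (quadFormOdd 4 F) H ∨ C5 (quadFormOdd 4 F) H ∨ C4 (quadFormOdd 4 F) H ∨
      C7 (quadFormOdd 4 F) H ∨ InOrthogonalResidualClass H := by
    rcases main hO (by rw [hcard]; omega) H hiso hsc with ((h | h | h | h | h | h) | h | h) | h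
    · exact Or.inl h
    · exact Or.inr (Or.inl h)
    · obtain ⟨k, hk, t, D, hD, hHD⟩ := h
      have h1 := Cfsg.Agent.Lib.Helper55.Asch.card_of_decomp D hD.decomp.decomp
      rw [hcard] at h1
      obtain ⟨rfl, rfl⟩ := nine_mul h1 hD.decomp.decomp.two_le hk
      by_cases hq : Fintype.card F = 3
      · by_cases hirr : ActsIrreducibly (matrixSet H)
        · exact Or.inr (Or.inr (Or.inr (Or.inl ⟨by rw [hq]; norm_num,
            frame_of_blocks_three hq 4 H hI hirr ⟨3, D, hD, hHD⟩⟩)))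
        · rcases reducible_case hO hiso hirr with h | h
          · exact Or.inl h
          · exact Or.inr (Or.inl h)
      · exact Or.inr (Or.inr (Or.inl ⟨five_le_of_odd hodd hq1 hq, 3, D, hD, hHD⟩))
    · exact Or.inr (Or.inr (Or.inr (Or.inl h)))
    · exact Or.inr (Or.inr (Or.inr (Or.inr (Or.inl h))))
    · exact Or.inr (Or.inr (Or.inr (Or.inr (Or.inr (Or.inl h)))))
    · exact Or.inr (Or.inr (Or.inr (Or.inr (Or.inr (Or.inr (Or.inl h))))))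
    · exact Or.inr (Or.inr (Or.inr (Or.inr (Or.inr (Or.inr (Or.inr (Or.inl h)))))))
    · exact Or.inr (Or.inr (Or.inr (Or.inr (Or.inr (Or.inr (Or.inr (Or.inr h)))))))
  rcases key with ⟨W, h0, h1, h2⟩ | h | ⟨hq, t, D, hD, hHD⟩ | ⟨hq, t, D, hD, hHD⟩ |
      ⟨r, K, hr, hne, hK, hsa, hHK⟩ | ⟨F₀, r, P, hr, hc, hP, hHP⟩ |
      ⟨n₁, n₂, e, P, f₁, f₂, h1, h2, -, -, -, -⟩ | ⟨k, t, e, P, f₁, h1, h2, h3, h4, h5, h6⟩ | h
  · exact Or.inl ⟨W, h0, h1, eq_inf_of_maximal' hH h2 (not_le_singular hodd 4 (by norm_num) W h0 h1)⟩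
  · obtain ⟨W, h0, h1, hev, hnd, hex, hHW⟩ := even_nondeg hO (by rw [hcard]; omega) hiso h
    exact Or.inr (Or.inl ⟨W, h0, hev, hnd, hex,
      eq_inf_of_maximal' hH hHW (not_le_nondeg hodd 4 (by norm_num) W h0 h1 hnd)⟩)
  · have h1 := Cfsg.Agent.Lib.Helper55.Asch.card_of_decomp D hD.decomp.decomp
    rw [hcard] at h1
    have ht : t = 3 := by omega
    subst ht
    exact Or.inr (Or.inr (Or.inr (Or.inl ⟨hq, D, hD,
      eq_inf_of_maximal' hH hHD (not_le_decomp hodd 4 (by norm_num) D hD)⟩)))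
  · have h1 := Cfsg.Agent.Lib.Helper55.Asch.card_of_decomp D hD.decomp.decomp
    rw [hcard, mul_one] at h1
    subst h1
    exact Or.inr (Or.inr (Or.inl ⟨hq, D, hD,
      eq_inf_of_maximal' hH hHD (not_le_decomp hodd 4 (by norm_num) D hD)⟩))
  · have h1 := Cfsg.Agent.Lib.Helper58.Asch.dvd_card_of_field K hK
    rw [hcard] at h1 hne
    have hr3 : r = 3 := by
      have h9 : r ∣ 3 ^ 2 := by norm_num; exact h1
      exact (Nat.prime_dvd_prime_iff_eq hr Nat.prime_three).1 (hr.dvd_of_dvd_pow h9)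
    subst hr3
    exact Or.inr (Or.inr (Or.inr (Or.inr (Or.inl ⟨K, hK, hsa,
      eq_inf_of_maximal' hH hHK (not_le_fieldNormalizer hodd 4 (by norm_num) le_rfl K hK)⟩))))
  · exact Or.inr (Or.inr (Or.inr (Or.inr (Or.inr (Or.inl ⟨F₀, r, P, hr, hc, hP,
      eq_inf_of_maximal' hH hHP (not_le_subfield hodd 4 (by norm_num) F₀ r hr hc P hP)⟩)))))
  · exfalso
    have hc := Fintype.card_congr e
    rw [hcard] at hc
    simp only [Fintype.card_prod, Fintype.card_fin] at hc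
    have := nine_mul hc.symm (by omega) (by omega)
    omega
  · have hc := Fintype.card_congr e
    rw [hcard] at hc
    simp only [Fintype.card_pi, Fintype.card_fin, Finset.prod_const, Finset.card_univ] at hc
    obtain ⟨rfl, rfl⟩ := nine_pow hc.symm h2 h1
    have hq : 5 ≤ Fintype.card F := five_le_of_odd hodd hq1 (fun h => h3 ⟨h, rfl⟩)
    exact Or.inr (Or.inr (Or.inr (Or.inr (Or.inr (Or.inr (Or.inl ⟨hq, e, P, f₁, h4, h5,
      eq_inf_of_maximal' hH h6 (not_le_wreath_two hodd 4 (by norm_num) le_rfl e P)⟩))))))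
  · exact Or.inr (Or.inr (Or.inr (Or.inr (Or.inr (Or.inr (Or.inr h))))))

end Cfsg.Agent.Lib.Helper21.OAsch
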